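import Cfsg.Agent.Lib.Helper29.FiB.Up0
import Cfsg.Agent.Lib.Helper29.FiB.Lo0

/-! Generated: the certificate `ok` for FiB (Fi22). -/

set_option autoImplicit false

namespace Cfsg.Agent.Lib.Helper29.FiB

open Cfsg.Agent.Lib.Helper29 Cfsg.Agent.Lib.Helper29.TcTrace Cfsg.Agent.Lib.Helper29.TcCert
  Cfsg.Agent.Lib.Helper29.TcPerm Cfsg.Agent.Lib.Helper29.TcCox

theorem upAll : ∀ b, b < 442 → ∃ J, chkBlk D lay cols 69 30479 b J = true := fun b h =>
  up_0_442 b (Nat.zero_le _) h

theorem loAll : ∀ b, b < 17 → ∃ J, chkPBlk P 5 31 188 3159 b J = true := fun b h =>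
  lo_0_17 b (Nat.zero_le _) h

theorem ok : CoxOK edgesQ (extraWords.map FreeGroup.mk)
    {x | x ∈ hWords.map FreeGroup.mk}
    nodesL extraWords hWords colOf colLetters invL 10 7
    D 20 609580 3159 8 1048575 VL RL MG MT PAR PL FIN VERT vtree lay cols 69 30479 442 baseL P 5 31 188 17 where
  hnodes := by decide
  hnodes' := by decide
  hextra := by rfl
  hS := fun _ => Iff.rfl
  hcolOf := by rintro ⟨x, y⟩; cases x <;> cases y <;> decide
  hround := by decide
  hinvL := by decide
  hinvinv := by decide
  hnH := by rfl
  hD := by rfl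
  hW := by decide
  hWN := by decide
  hN := by decide
  hRL := by decide +kernel
  hVLlen := by rfl
  hRLlen := by rfl
  hRH := by decide +kernel
  hlive0 := by decide +kernel
  hcols := by decide
  hB := by decide
  hcov := by decide
  hblk := upAll
  hbase := by decide +kernel
  hvtree := by decide +kernel
  hWL := by decide
  hPn := by decide
  hn := by decide
  hPcols := by decide
  hPrels := by decide +kernel
  hPhws := by decide +kernel
  hPtwl := by decide +kernel
  hPnH := by rfl
  hBL := by decide
  hcovL := by decide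
  hblkL := loAll
  hbound1 := by decide
  hbv := by decide +kernel

end Cfsg.Agent.Lib.Helper29.FiB
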